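import Cfsg.Agent.TH.Cl.Br.Tr
import Cfsg.Agent.N2.Tool

/-!
# N2 (S3519), classical socles: transport between `MI` and the form rings (helper58)

* `act F : F.Aut →* MulAut F.S`, `gam F H` the group of automorphisms of `F.S` induced by `H`;
* `exists_H` : from a model `ModE F X Γ₀` and `MI B Γ` to a subgroup `H ≤ F.Aut`;
* `max_of_mi`, `mi_of_max` : the two forms of maximality.
-/

set_option autoImplicit false

namespace Cfsg.Agent.N2.Cl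

open Subgroup Cfsg.Agent.DS.Cl Cfsg.Agent.DS.Cl.Fwd Cfsg.Agent.SB.Br Cfsg.Agent.FP3

variable {A : Type} [Ring A] [StarRing A]

theorem Aut_le_norm (F : FR A) : F.Aut ≤ normalizer (F.S : Set (RingAut A)) := fun γ hγ => by
  rw [mem_normalizer_iff]
  refine fun s => ⟨FR.conj_mem_S hγ, fun h => ?_⟩
  have h1 := FR.conj_mem_S (inv_mem hγ) h
  simpa [mul_assoc] using h1

/-- the action of `F.Aut` on `F.S` -/
def act (F : FR A) : F.Aut →* MulAut F.S := F.S.normalizerMonoidHom.comp (inclusion (Aut_le_norm F))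

theorem act_coe {F : FR A} (γ : F.Aut) (s : F.S) : ((act F γ s : F.S) : RingAut A) = γ * s * (γ : RingAut A)⁻¹ := rfl

theorem act_S {F : FR A} (s : F.S) : act F ⟨s, F.S_le_Aut s.2⟩ = MulAut.conj s := MulEquiv.ext fun _ => Subtype.ext rfl

theorem act_inj {F : FR A} (hc : ∀ γ ∈ F.Aut, (∀ s ∈ F.S, γ * s = s * γ) → γ = 1) : Function.Injective (act F) := by
  rw [injective_iff_map_eq_one]
  intro γ hγ
  refine Subtype.ext (hc γ γ.2 fun s hs => ?_)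
  have h1 := act_coe γ ⟨s, hs⟩
  rw [hγ] at h1
  exact mul_inv_eq_iff_eq_mul.1 h1.symm

/-- the automorphisms of `F.S` induced by `H` -/
def gam (F : FR A) (H : Subgroup (RingAut A)) : Subgroup (MulAut F.S) := (H.subgroupOf F.Aut).map (act F)

theorem mem_gam {F : FR A} {H : Subgroup (RingAut A)} {σ : MulAut F.S} :
    σ ∈ gam F H ↔ ∃ γ : F.Aut, (γ : RingAut A) ∈ H ∧ act F γ = σ := Iff.rfl

/-- **transport** from the abstract group to the form ring -/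
theorem exists_H {F : FR A} {X : Type} [Group X] {Γ₀ : Set (MulAut X)} (hmod : ModE F X Γ₀)
    (hc : ∀ γ ∈ F.Aut, (∀ s ∈ F.S, γ * s = s * γ) → γ = 1) {B : Subgroup X} {Γ : Subgroup (MulAut X)} (h : MI B Γ)
    (hΓ : ∀ σ ∈ Γ, σ ∈ Γ₀) : ∃ (e : F.S ≃* X) (H : Subgroup (RingAut A)), H ≤ F.Aut ∧
      (H ⊓ F.S).subgroupOf F.S = B.comap e.toMonoidHom ∧ MI ((H ⊓ F.S).subgroupOf F.S) (gam F H) := by
  obtain ⟨-, -, e, hΓ'⟩ := hmod
  have h1 := mi_comap e h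
  set Γ' := Γ.comap (MulAut.congr e).toMonoidHom with hΓ''
  let H : Subgroup (RingAut A) := (Γ'.comap (act F)).map F.Aut.subtype
  have hH : ∀ γ : F.Aut, (γ : RingAut A) ∈ H ↔ act F γ ∈ Γ' := fun γ =>
    ⟨fun ⟨δ, hδ, e'⟩ => (Subtype.ext e' : δ = γ) ▸ hδ, fun k => ⟨γ, k, rfl⟩⟩
  have hg : gam F H = Γ' := by
    ext σ
    constructor
    · rintro ⟨γ, hγ, rfl⟩
      exact (hH γ).1 hγ
    · intro hσ
      obtain ⟨γ, hγ, k⟩ := hΓ' _ (hΓ _ hσ)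
      have h2 : act F ⟨γ, hγ⟩ = σ := MulEquiv.ext fun s => e.injective (by
        rw [k s (act F ⟨γ, hγ⟩ s) rfl]
        change e (σ (e.symm (e s))) = _
        rw [e.symm_apply_apply])
      exact ⟨⟨γ, hγ⟩, (hH ⟨γ, hγ⟩).2 (h2 ▸ hσ), h2⟩
  have hB : (H ⊓ F.S).subgroupOf F.S = B.comap e.toMonoidHom := by
    ext s
    rw [← h1.conj, ← act_S, ← hH]
    exact ⟨fun k => k.1, fun k => ⟨k, s.2⟩⟩
  refine ⟨e, H, ?_, hB, ?_⟩
  · rintro _ ⟨γ, -, rfl⟩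
    exact γ.2
  · rw [hB, hg]
    exact h1

variable {F : FR A} {H : Subgroup (RingAut A)}

theorem not_le_of_mi (h : MI ((H ⊓ F.S).subgroupOf F.S) (gam F H)) : ¬ F.S ≤ H := fun k =>
  h.ne_top (eq_top_iff.2 fun s _ => ⟨k s.2, s.2⟩)

theorem ne_bot_of_mi (h : MI ((H ⊓ F.S).subgroupOf F.S) (gam F H)) : H ⊓ F.S ≠ ⊥ := fun k =>
  h.ne_bot (by rw [k, bot_subgroupOf])

/-- an overgroup of `H` in `F.Aut` not containing `F.S` meets `F.S` in `H ⊓ F.S` -/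
theorem inf_le_of_mi (h : MI ((H ⊓ F.S).subgroupOf F.S) (gam F H)) {M : Subgroup (RingAut A)} (h1 : H ≤ M)
    (h3 : ¬ F.S ≤ M) : M ⊓ F.S ≤ H := by
  rcases h.max (M.subgroupOf F.S) (fun s hs => h1 hs.1) (by
    rintro _ ⟨γ, hγ, rfl⟩ b hb
    exact M.mul_mem (M.mul_mem (h1 hγ) hb) (M.inv_mem (h1 hγ))) with k | k
  · intro s hs
    have h4 : (⟨s, hs.2⟩ : F.S) ∈ M.subgroupOf F.S := hs.1
    rw [k] at h4
    exact h4.1
  · exact absurd (fun s hs => (k ▸ mem_top (⟨s, hs⟩ : F.S) : (⟨s, hs⟩ : F.S) ∈ M.subgroupOf F.S)) h3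

theorem exists_mul_of_mem_sup (hle : H ≤ F.Aut) {g : RingAut A} (hg : g ∈ F.S ⊔ H) : ∃ s ∈ F.S, ∃ γ ∈ H, g = s * γ := by
  let W : Subgroup (RingAut A) :=
    { carrier := {g | ∃ s ∈ F.S, ∃ γ ∈ H, g = s * γ}
      one_mem' := ⟨1, one_mem _, 1, one_mem _, (one_mul _).symm⟩
      mul_mem' := by
        rintro _ _ ⟨s, hs, γ, hγ, rfl⟩ ⟨t, ht, δ, hδ, rfl⟩
        exact ⟨s * (γ * t * γ⁻¹), mul_mem hs (FR.conj_mem_S (hle hγ) ht), γ * δ, mul_mem hγ hδ, by group⟩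
      inv_mem' := by
        rintro _ ⟨s, hs, γ, hγ, rfl⟩
        exact ⟨γ⁻¹ * s⁻¹ * γ⁻¹⁻¹, FR.conj_mem_S (inv_mem (hle hγ)) (inv_mem hs), γ⁻¹, inv_mem hγ, by group⟩ }
  have : F.S ⊔ H ≤ W := sup_le (fun s hs => ⟨s, hs, 1, one_mem _, (mul_one _).symm⟩)
    fun γ hγ => ⟨1, one_mem _, γ, hγ, (one_mul _).symm⟩
  exact this hg

theorem max_of_mi (hle : H ≤ F.Aut) (h : MI ((H ⊓ F.S).subgroupOf F.S) (gam F H)) {M : Subgroup (RingAut A)}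
    (h1 : H ≤ M) (h2 : M ≤ F.S ⊔ H) (h3 : ¬ F.S ≤ M) : M ≤ H := fun g hg => by
  obtain ⟨s, hs, γ, hγ, rfl⟩ := exists_mul_of_mem_sup hle (h2 hg)
  have h4 : s ∈ M := by simpa using M.mul_mem hg (M.inv_mem (h1 hγ))
  exact H.mul_mem (inf_le_of_mi h h1 h3 ⟨h4, hs⟩) hγ

theorem mi_of_max (hc : ∀ γ ∈ F.Aut, (∀ s ∈ F.S, γ * s = s * γ) → γ = 1) (hle : H ≤ F.Aut) (hn : ¬ F.S ≤ H)
    (h0 : H ⊓ F.S ≠ ⊥) (hm : ∀ M : Subgroup (RingAut A), H ≤ M → M ≤ F.S ⊔ H → ¬ F.S ≤ M → M ≤ H) :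
    MI ((H ⊓ F.S).subgroupOf F.S) (gam F H) where
  max B hB hi := by
    by_cases ht : B = ⊤
    · exact Or.inr ht
    refine Or.inl (le_antisymm (fun b hb => ⟨?_, b.2⟩) hB)
    let W : Subgroup (RingAut A) :=
      { carrier := {g | ∃ s ∈ B, ∃ γ ∈ H, g = s * γ}
        one_mem' := ⟨1, one_mem _, 1, one_mem _, (one_mul _).symm⟩
        mul_mem' := by
          rintro _ _ ⟨s, hs, γ, hγ, rfl⟩ ⟨t, ht, δ, hδ, rfl⟩
          refine ⟨s * act F ⟨γ, hle hγ⟩ t, mul_mem hs (hi _ ⟨⟨γ, hle hγ⟩, hγ, rfl⟩ t ht), γ * δ, mul_mem hγ hδ, ?_⟩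
          rw [coe_mul, act_coe]
          group
        inv_mem' := by
          rintro _ ⟨s, hs, γ, hγ, rfl⟩
          refine ⟨act F ⟨γ⁻¹, hle (inv_mem hγ)⟩ s⁻¹, hi _ ⟨⟨γ⁻¹, hle (inv_mem hγ)⟩, inv_mem hγ, rfl⟩ _ (inv_mem hs), γ⁻¹,
            inv_mem hγ, ?_⟩
          rw [act_coe, coe_inv]
          group }
    refine hm W (fun γ hγ => ⟨1, one_mem _, γ, hγ, (one_mul _).symm⟩) ?_ (fun k => ht (eq_top_iff.2 fun s _ => ?_))
      ⟨b, hb, 1, one_mem _, (mul_one _).symm⟩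
    · rintro _ ⟨s, -, γ, hγ, rfl⟩
      exact mul_mem (mem_sup_left s.2) (mem_sup_right hγ)
    · obtain ⟨t, ht, γ, hγ, e⟩ := k s.2
      have h1 : t⁻¹ * s ∈ B := hB ⟨by
        change ((t : RingAut A))⁻¹ * s ∈ H
        rw [e, inv_mul_cancel_left]
        exact hγ, (t⁻¹ * s).2⟩
      simpa using B.mul_mem ht h1
  ne_top k := hn fun s hs => (k ▸ mem_top (⟨s, hs⟩ : F.S) : (⟨s, hs⟩ : F.S) ∈ (H ⊓ F.S).subgroupOf F.S).1
  ne_bot k := h0 (eq_bot_iff.2 fun s hs => by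
    have h1 : (⟨s, hs.2⟩ : F.S) ∈ (H ⊓ F.S).subgroupOf F.S := hs
    rw [k, mem_bot] at h1
    exact congrArg Subtype.val h1)
  conj a := by
    rw [← act_S]
    exact ⟨fun ⟨γ, hγ, e⟩ => ⟨by rw [act_inj hc e] at hγ; exact hγ, a.2⟩, fun k => ⟨_, k.1, rfl⟩⟩
  inv := by
    rintro _ ⟨γ, hγ, rfl⟩ a
    constructor
    · intro k
      have h1 : (γ : RingAut A) * a * (γ : RingAut A)⁻¹ ∈ H := k.1
      have h2 := H.mul_mem (H.mul_mem (H.inv_mem hγ) h1) hγ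
      exact ⟨by simpa [mul_assoc] using h2, a.2⟩
    · exact fun k => ⟨H.mul_mem (H.mul_mem hγ k.1) (H.inv_mem hγ), (act F γ a).2⟩

end Cfsg.Agent.N2.Cl
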